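import Cfsg.Agent.H26.OnAbel
import Cfsg.Agent.H12.ZassBasic
import Cfsg.Agent.H31.Perm
import Cfsg.Agent.S0157
import Cfsg.Agent.H5.Complete
import Cfsg.Agent.H6.IndRep

/-! Doubly transitive symmetric designs with an axial automorphism (Ito). -/

set_option autoImplicit false
set_option linter.unusedSectionVars false

namespace Cfsg.Agent.H26

open MulAction Subgroup Finset
open scoped Classical

theorem card_fixedBy_quot_eq {G Ω : Type*} [Group G] [Finite G] [MulAction G Ω] [Finite Ω]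
    (h2 : IsMultiplyPretransitive G Ω 2) (H : Subgroup G) (hidx : H.index = Nat.card Ω)
    (hnt : ¬ IsPretransitive H Ω) :
    (∀ g : G, Nat.card (fixedBy (G ⧸ H) g) = Nat.card (fixedBy Ω g)) ∧
      IsMultiplyPretransitive G (G ⧸ H) 2 := by
  have := Fintype.ofFinite G
  have := Fintype.ofFinite Ω
  have hn0 : 0 < Nat.card Ω := by rw [← hidx]; exact Nat.pos_of_ne_zero H.index_ne_zero_of_finite
  have hne : Nonempty Ω := (Nat.card_pos_iff.mp hn0).1
  have hn2 : 2 ≤ Nat.card Ω := by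
    by_contra hc
    have : Subsingleton Ω := (Finite.card_le_one_iff_subsingleton).mp (by omega)
    exact hnt ⟨fun a b => ⟨1, Subsingleton.elim _ _⟩⟩
  have h1 : IsPretransitive G Ω := by
    have := isMultiplyPretransitive_of_le (G := G) (α := Ω) (m := 1) (n := 2) (by norm_num)
      (by exact_mod_cast hn2)
    exact is_one_pretransitive_iff.mp this
  have hχ := (S0157.result (G := G) Ω hn2).mpr h2
  set χ : G → ℂ := fun g => (Nat.card (fixedBy Ω g) : ℂ) - 1 with hχdef
  set ψ : G → ℂ := indFun H (fun _ => 1) with hψ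
  have hψc : IsCharacter G ψ := H6.isCharacter_indFun H H5.isCharacter_one
  set r := Nat.card (orbitRel.Quotient H Ω) with hr
  have hψ1 : classInner ψ (fun _ => 1) = 1 := by
    rw [hψ, H6.classInner_indFun_left H _ (fun _ _ => rfl)]
    exact H5.classInner_irr_self H5.isIrrCharacter_one
  have hχ1 : χ ≠ fun _ => 1 := by
    intro h
    have h3 := sum_card_fixedBy_eq_card_orbits_mul_card_group G Ω
    have h4 : ∀ g : G, Fintype.card (fixedBy Ω g) = 2 := by
      intro g
      have := congrFun h g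
      simp only [hχdef, Nat.card_eq_fintype_card] at this
      have h5 : ((Fintype.card (fixedBy Ω g) : ℕ) : ℂ) = (2 : ℕ) := by
        push_cast; linear_combination this
      exact_mod_cast h5
    have h5 : Fintype.card (orbitRel.Quotient G Ω) = 1 := by
      rw [Fintype.card_eq_one_iff_nonempty_unique]
      exact (pretransitive_iff_unique_quotient_of_nonempty G Ω).mp h1
    simp only [h4, Finset.sum_const, Finset.card_univ, smul_eq_mul] at h3
    erw [h5] at h3
    have : 0 < Fintype.card G := Fintype.card_pos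
    omega
  have hψχ : classInner ψ χ = r - 1 := by
    rw [hψ, H6.classInner_indFun_left H _ (H5.isClassFunction_of_isIrr hχ)]
    have h3 := sum_card_fixedBy_eq_card_orbits_mul_card_group H Ω
    have h4 : ∑ h : H, (Nat.card (fixedBy Ω (h : G)) : ℂ) = r * Nat.card H := by
      rw [hr, Nat.card_eq_fintype_card, Nat.card_eq_fintype_card]
      simp only [Nat.card_eq_fintype_card]
      exact_mod_cast h3
    unfold classInner
    simp only [hχdef, one_mul, map_sub, map_natCast, map_one, Finset.sum_sub_distrib, h4,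
      Finset.sum_const, Finset.card_univ, nsmul_eq_mul, mul_one, ← Nat.card_eq_fintype_card]
    have : (Nat.card H : ℂ) ≠ 0 := H5.natCard_ne_zero
    field_simp
  have hr1 : r ≠ 1 := by
    intro h
    apply hnt
    rw [pretransitive_iff_subsingleton_quotient]
    exact (Nat.card_eq_one_iff_unique.mp h).1
  have h3 := H5.isCharacter_sub_of_constituent hψc H5.isIrrCharacter_one (by rw [hψ1]; simp)
  have h4 : classInner (ψ - fun _ => 1) χ = r - 1 := by
    rw [H5.classInner_sub_left, hψχ, H5.classInner_irr_ne H5.isIrrCharacter_one hχ hχ1.symm,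
      sub_zero]
  have h5 := H5.isCharacter_sub_of_constituent h3 hχ (by
    rw [h4, sub_ne_zero]; exact_mod_cast hr1)
  have h6 := H5.eq_zero_of_degree_eq_zero h5 (by
    simp only [Pi.sub_apply, hψ, H6.indFun_apply_one, hχdef, hidx]
    simp)
  have h7 : ∀ g : G, Nat.card (fixedBy (G ⧸ H) g) = Nat.card (fixedBy Ω g) := fun g => by
    have := congrFun h6 g
    simp only [Pi.sub_apply, hψ, hχdef, H31.indFun_one_eq_card_fixedBy, Pi.zero_apply] at this
    exact_mod_cast (show (Nat.card (fixedBy (G ⧸ H) g) : ℂ) = Nat.card (fixedBy Ω g) by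
      linear_combination this)
  refine ⟨h7, (S0157.result (G := G) (G ⧸ H) (hidx ▸ hn2 :)).mp ?_⟩
  simpa only [h7] using hχ

variable {G Ω X : Type*} [Group G] [MulAction G Ω] [MulAction G X] [Fintype Ω] [Fintype X]

/-- A symmetric design with a group of automorphisms. -/
structure SD (G : Type*) [Group G] [MulAction G Ω] [MulAction G X] (I : Ω → X → Prop) (k l : ℕ) :
    Prop where
  inv : ∀ (g : G) s x, I (g • s) (g • x) ↔ I s x
  blk : ∀ x, #{s | I s x} = k
  pt : ∀ s, #{x | I s x} = k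
  blk2 : ∀ {x y}, x ≠ y → #{s | I s x ∧ I s y} = l
  pt2 : ∀ {s t}, s ≠ t → #{x | I s x ∧ I t x} = l
  lt : l + 2 ≤ k
  cnt : (Fintype.card Ω - k) * l = (k - 1) * (k - l)
  faith : ∀ g : G, (∀ s : Ω, g • s = s) → g = 1
  fixeq : ∀ g : G, #{x : X | g • x = x} = #{s : Ω | g • s = s}

theorem imp_of_card {α : Type*} [Fintype α] {p q : α → Prop} [DecidablePred p] [DecidablePred q]
    {m : ℕ} (h1 : #{s | p s} = m) (h2 : #{s | q s} = m) (h : ∀ s, p s → q s) {s : α} (hs : q s) :
    p s := by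
  have : univ.filter p = univ.filter q :=
    eq_of_subset_of_card_le (monotone_filter_right _ fun s _ => h s) (h2.trans h1.symm).le
  exact (mem_filter.1 (this.ge (mem_filter.2 ⟨mem_univ _, hs⟩))).2

theorem card_inter_const {I : Ω → X → Prop} (inv : ∀ (g : G) s x, I (g • s) (g • x) ↔ I s x)
    (g : G) (x y : X) : #{s | I s (g • x) ∧ I s (g • y)} = #{s | I s x ∧ I s y} :=
  (card_bij' (fun s _ => g • s) (fun s _ => g⁻¹ • s) (by simp [inv])
    (fun s hs => by
      simp only [mem_filter, mem_univ, true_and] at hs ⊢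
      rwa [← inv g, ← inv g _ y, smul_inv_smul]) (by simp) (by simp)).symm

theorem design_count {I : Ω → X → Prop} {k r l : ℕ} (h1 : ∀ x, #{s | I s x} = k)
    (h2 : ∀ s, #{x | I s x} = r) (h3 : ∀ {x y}, x ≠ y → #{s | I s x ∧ I s y} = l) (x : X) :
    k * (r - 1) = (Fintype.card X - 1) * l := by
  have := sum_card_bipartiteAbove_eq_sum_card_bipartiteBelow (s := ({s | I s x} : Finset Ω))
    (t := univ.erase x) I
  rw [sum_congr rfl (g := fun _ => r - 1), sum_congr rfl (s₁ := univ.erase x) (g := fun _ => l),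
    sum_const, sum_const, h1, card_erase_of_mem (mem_univ _), card_univ] at this
  · exact this
  · intro y hy
    rw [← h3 (ne_of_mem_erase hy).symm, bipartiteBelow, filter_filter]
  · intro s hs
    rw [← h2 s, bipartiteAbove, filter_erase, card_erase_of_mem (by simpa using hs)]

theorem exists_SD {I : Ω → X → Prop} (inv : ∀ (g : G) s x, I (g • s) (g • x) ↔ I s x)
    (two : ∀ {x y x' y' : Ω}, x ≠ y → x' ≠ y' → ∃ g : G, g • x = x' ∧ g • y = y')
    (two' : ∀ {x y x' y' : X}, x ≠ y → x' ≠ y' → ∃ g : G, g • x = x' ∧ g • y = y')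
    (faith : ∀ g : G, (∀ s : Ω, g • s = s) → g = 1)
    (fixeq : ∀ g : G, #{x : X | g • x = x} = #{s : Ω | g • s = s}) {x : X} {a b c d : Ω}
    (hab : a ≠ b) (hcd : c ≠ d) (ha : I a x) (hb : I b x) (hc : ¬ I c x) (hd : ¬ I d x) :
    ∃ k l, SD G I k l := by
  have hv : Fintype.card X = Fintype.card Ω := by simpa using fixeq 1
  have : Nontrivial X := Fintype.one_lt_card_iff_nontrivial.1
    (hv ▸ Fintype.one_lt_card_iff.2 ⟨a, b, hab⟩)
  obtain ⟨y, hy⟩ := exists_ne x
  have b2 : ∀ {u w}, u ≠ w → #{s | I s u ∧ I s w} = #{s | I s y ∧ I s x} := fun h => by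
    obtain ⟨g, rfl, rfl⟩ := two' hy h
    exact card_inter_const inv g _ _
  have p2 : ∀ {u w}, u ≠ w → #{s | I u s ∧ I w s} = #{s | I a s ∧ I b s} := fun h => by
    obtain ⟨g, rfl, rfl⟩ := two hab h
    exact card_inter_const (I := fun s u => I u s) (fun g s u => inv g u s) g _ _
  have b1 : ∀ u, #{s | I s u} = #{s | I s x} := fun u => by
    obtain ⟨w, hw⟩ := exists_ne u
    obtain ⟨g, -, rfl⟩ := two' hy hw
    simpa using card_inter_const inv g x x
  have p1 : ∀ u, #{s | I u s} = #{s | I a s} := fun u => by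
    obtain ⟨w, hw⟩ : ∃ w, u ≠ w := by
      by_cases e : u = a
      · exact ⟨b, e ▸ hab⟩
      · exact ⟨a, e⟩
    obtain ⟨g, rfl, -⟩ := two hab hw
    simpa using card_inter_const (I := fun s u => I u s) (fun g s u => inv g u s) g a a
  have e1 := sum_card_bipartiteAbove_eq_sum_card_bipartiteBelow (s := univ) (t := univ) I
  simp only [bipartiteAbove, bipartiteBelow, b1, p1, sum_const, card_univ, smul_eq_mul, hv] at e1
  have e2 := Nat.eq_of_mul_eq_mul_left (Fintype.card_pos_iff.2 ⟨a⟩) e1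
  have e3 := design_count b1 p1 b2 x
  have e4 := design_count (I := fun s u => I u s) p1 b1 p2 a
  have e5 : 2 ≤ #{s | I s x} := one_lt_card.2 ⟨a, by simpa, b, by simpa, hab⟩
  have e6 : 2 ≤ #{s | ¬ I s x} := one_lt_card.2 ⟨c, by simpa, d, by simpa, hcd⟩
  have e7 := card_filter_add_card_filter_not (s := univ) (I · x)
  have e8 : #{s | I s y ∧ I s x} ≤ #{s | I s x} := card_le_card fun s => by simp
  rw [e2] at e3 e4 p1
  rw [hv] at e3
  rw [card_univ] at e7
  generalize #{s | I s x} = k at *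
  generalize #{s | I s y ∧ I s x} = l at *
  generalize #{s | ¬ I s x} = m at *
  obtain ⟨k, rfl⟩ : ∃ j, k = j + 1 := ⟨k - 1, by omega⟩
  rw [← e7] at e3 e4
  rw [show k + 1 + m - 1 = k + m by omega, Nat.add_sub_cancel] at e3 e4
  rw [Nat.eq_of_mul_eq_mul_left (by omega) (e4.symm.trans e3)] at p2
  have e9 : l + 2 ≤ k + 1 := by
    by_contra hcon
    have : (k + m) * k ≤ (k + m) * l := Nat.mul_le_mul_left _ (by omega)
    nlinarith
  refine ⟨k + 1, l, inv, b1, p1, b2, p2, e9, ?_, faith, fixeq⟩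
  obtain ⟨j, rfl⟩ : ∃ j, k = l + j := ⟨k - l, by omega⟩
  rw [← e7, show l + j + 1 + m - (l + j + 1) = m by omega, Nat.add_sub_cancel,
    show l + j + 1 - l = j + 1 by omega]
  nlinarith

namespace SD

variable {I : Ω → X → Prop} {k l : ℕ} {g : G} {x y : X}

theorem inv_l (h : SD G I k l) {s : Ω} (hx : g • x = x) : I (g • s) x ↔ I s x := by
  rw [← h.inv g s x, hx]

theorem inv_p (h : SD G I k l) {s : Ω} (hs : g • s = s) : I s (g • x) ↔ I s x := by
  rw [← h.inv g s x, hs]

theorem fix_axis (h : SD G I k l) (hg : ∀ s, I s x → g • s = s) : g • x = x := by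
  by_contra e
  have h1 := h.blk2 e
  have h2 := h.lt
  rw [filter_congr (q := (I · x)) fun s _ =>
    ⟨fun a => a.2, fun a => ⟨(h.inv_p (hg s a)).2 a, a⟩⟩, h.blk] at h1
  omega

theorem on_axis (h : SD G I k l) (hg : ∀ s, I s x → g • s = s) (hy : g • y ≠ y) {s : Ω}
    (h1 : I s y) (h2 : g • s = s) : I s x := by
  have h3 : x ≠ y := fun e => hy (e ▸ h.fix_axis hg)
  exact (imp_of_card (h.blk2 h3) (h.blk2 hy) (fun s a => ⟨(h.inv_p (hg s a.1)).2 a.2, a.2⟩)
    ⟨(h.inv_p h2).2 h1, h1⟩).1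

theorem exists_two (h : SD G I k l) {s t : Ω} (hst : s ≠ t) :
    ∃ y z, y ≠ z ∧ I s y ∧ I s z ∧ ¬ I t y ∧ ¬ I t z := by
  have h1 := card_filter_add_card_filter_not (s := ({x | I s x} : Finset X)) (I t)
  rw [filter_filter, filter_filter, h.pt2 hst, h.pt] at h1
  have h2 := h.lt
  obtain ⟨y, h3, z, h4, h5⟩ := one_lt_card.1 (show 1 < #{x | I s x ∧ ¬ I t x} by omega)
  simp only [mem_filter, mem_univ, true_and] at h3 h4
  exact ⟨y, z, h5, h3.1, h4.1, h3.2, h4.2⟩

theorem ti (h : SD G I k l) (hxy : x ≠ y) (hx : ∀ s, I s x → g • s = s)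
    (hy : ∀ s, I s y → g • s = s) : g = 1 := by
  refine h.faith g fun s => ?_
  by_contra hs
  obtain ⟨u, w, h1, h2, h3, h4, h5⟩ := h.exists_two (Ne.symm hs)
  have key : ∀ u, I s u → ¬ I (g • s) u → ∀ t, I t x → I t y → I t u := fun u h2 h4 t a b => by
    have n1 : g • u ≠ u := fun e => h4 ((h.inv_l e).2 h2)
    exact (imp_of_card (h.blk2 (x := u) (y := x) fun e => n1 (by rw [e, h.fix_axis hx]))
      (h.blk2 hxy) (fun s a => ⟨a.2, h.on_axis hy n1 a.1 (hx s a.2)⟩) ⟨a, b⟩).1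
  have h6 : insert s ({s | I s x ∧ I s y} : Finset Ω) ⊆ ({s | I s u ∧ I s w} : Finset Ω) :=
    insert_subset (by simpa using ⟨h2, h3⟩) fun t => by
      simpa using fun a b => ⟨key u h2 h4 t a b, key w h3 h5 t a b⟩
  have h7 := card_le_card h6
  rw [card_insert_of_notMem (by simpa using fun a => absurd (hx s a) hs), h.blk2 hxy,
    h.blk2 h1] at h7
  omega

theorem off_axis (h : SD G I k l) (hx : ∀ s, I s x → g • s = s) (h1 : g ≠ 1) {p q : Ω}
    (hp : ¬ I p x) (hq : ¬ I q x) (h2 : g • p = p) (h3 : g • q = q) : p = q := by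
  by_contra e
  obtain ⟨y, -, -, h4, -, h5, -⟩ := h.exists_two e
  refine h1 (h.ti (x := x) (y := y) (fun e => hp (e ▸ h4)) hx fun s hs => ?_)
  by_contra hs'
  have key : ∀ p, ¬ I p x → g • p = p → ∀ y, I s y ∧ I p y → I s y ∧ I (g • s) y :=
    fun p hp h2 y a => ⟨a.1, (h.inv_l (by_contra fun e => hp (h.on_axis hx e a.2 h2))).2 a.1⟩
  exact h5 (imp_of_card (h.pt2 (s := s) (t := q) fun e => hs' (by rw [e, h3])) (h.pt2 (Ne.symm hs'))
    (key q hq h3) (key p hp h2 y ⟨hs, h4⟩)).2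

theorem card_fix (h : SD G I k l) (hx : ∀ s, I s x → g • s = s) (h1 : ∀ s, ¬ I s x → g • s ≠ s) :
    #{y : X | g • y = y} = k := by
  rw [h.fixeq, ← h.blk x]
  exact congrArg card (filter_congr fun s _ => ⟨fun a => by_contra fun b => h1 s b a, hx s⟩)

theorem card_off (h : SD G I k l) (hxy : y ≠ x) : #{s | ¬ I s x ∧ I s y} = k - l := by
  have h1 := card_filter_add_card_filter_not (s := ({s | I s y} : Finset Ω)) (I · x)
  rw [filter_filter, filter_filter, h.blk2 hxy, h.blk] at h1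
  rw [filter_congr (q := fun s => I s y ∧ ¬ I s x) fun s _ => and_comm]
  omega

theorem fix_line (h : SD G I k l) (hx : ∀ s, I s x → g • s = s) (h1 : ∀ s, ¬ I s x → g • s ≠ s)
    {z : X} (hy : g • y = y) (hyx : y ≠ x) (hzx : z ≠ x) (hz : ∀ s, I s x → (I s z ↔ I s y)) :
    g • z = z := by
  let Φ : Finset X := {y | g • y = y}
  let f : Ω → ℕ := fun s => #(Φ.bipartiteAbove I s)
  have hΦ : #Φ = k := h.card_fix hx h1
  have hxΦ : x ∈ Φ := by simpa [Φ] using h.fix_axis hx
  have f1 : ∀ s ∈ ({s | ¬ I s x} : Finset Ω), f s ≤ l := fun s hs => by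
    rw [← h.pt2 (h1 s (by simpa using hs))]
    exact card_le_card fun y => by simpa [Φ] using fun a b => ⟨(h.inv_l a).2 b, b⟩
  have f2 : ∑ s ∈ ({s | ¬ I s x} : Finset Ω), f s = ∑ s ∈ ({s | ¬ I s x} : Finset Ω), l := by
    rw [sum_card_bipartiteAbove_eq_sum_card_bipartiteBelow, ← add_sum_erase _ _ hxΦ,
      sum_congr rfl (g := fun _ => k - l), sum_const, sum_const, card_erase_of_mem hxΦ, hΦ,
      smul_eq_mul, smul_eq_mul, ← h.cnt, filter_not, card_univ_sdiff, h.blk]
    · simp [bipartiteBelow]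
    · intro y hy
      rw [bipartiteBelow, filter_filter, h.card_off (ne_of_mem_erase hy)]
  have f3 := (sum_eq_sum_iff_of_le f1).1 f2
  have f4 : ∀ z, z ≠ x → ∑ s ∈ ({s | I s z} : Finset Ω), f s =
      ∑ s ∈ ({s | I s x ∧ I s z} : Finset Ω), f s + (k - l) * l := fun z hz => by
    rw [← sum_filter_add_sum_filter_not _ (I · x), filter_filter, filter_filter,
      sum_congr rfl (s₁ := {s | I s z ∧ ¬ I s x}) (g := fun _ => l), sum_const,
      filter_congr (p := fun s => I s z ∧ ¬ I s x) (q := fun s => ¬ I s x ∧ I s z)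
        fun s _ => and_comm, h.card_off hz, filter_congr (p := fun s => I s z ∧ I s x)
        (q := fun s => I s x ∧ I s z) fun s _ => and_comm, smul_eq_mul]
    exact fun s hs => f3 s (by simpa using (mem_filter.1 hs).2.2)
  have f5 := f4 y hyx
  rw [filter_congr (p := fun s => I s x ∧ I s y) (q := fun s => I s x ∧ I s z)
    fun s _ => and_congr_right fun a => (hz s a).symm, ← f4 z hzx,
    sum_card_bipartiteAbove_eq_sum_card_bipartiteBelow,
    sum_card_bipartiteAbove_eq_sum_card_bipartiteBelow,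
    ← add_sum_erase _ _ (show y ∈ Φ by simpa [Φ])] at f5
  by_contra e
  rw [sum_congr rfl (g := fun _ => l), sum_congr rfl (s₁ := Φ) (g := fun _ => l), sum_const,
    sum_const, card_erase_of_mem (by simpa [Φ]), hΦ, bipartiteBelow, filter_filter] at f5
  · simp only [and_self, h.blk, smul_eq_mul] at f5
    have := h.lt
    obtain ⟨k, rfl⟩ : ∃ j, k = j + 1 := ⟨k - 1, by omega⟩
    rw [Nat.add_sub_cancel] at f5
    nlinarith
  · intro u hu
    rw [bipartiteBelow, filter_filter, h.blk2 fun e' => e (by simpa [Φ, e'] using hu)]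
  · intro u hu
    rw [bipartiteBelow, filter_filter, h.blk2 (ne_of_mem_erase hu).symm]

variable [Finite G]

theorem exists_elations (h : SD G I k l) {c d : Ω} (hcd : c ≠ d) (hc : ¬ I c x) (hd : ¬ I d x)
    (tr : ∀ s t, ¬ I s x → ¬ I t x → ∃ g : G, g • x = x ∧ g • s = t)
    (hx : ∀ s, I s x → g • s = s) (h1 : g ≠ 1) : ∃ R : Subgroup G,
      (∀ g, g ∈ R ↔ (∀ s, I s x → g • s = s) ∧ (g = 1 ∨ ∀ s, ¬ I s x → g • s ≠ s)) ∧
        ∃ g ∈ R, g ≠ 1 := by
  let K : Subgroup G :=
    { carrier := {g | ∀ s, I s x → g • s = s}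
      one_mem' := fun _ _ => one_smul _ _
      mul_mem' := fun a b s hs => by rw [mul_smul, b s hs, a s hs]
      inv_mem' := fun a s hs => inv_smul_eq_iff.2 (a s hs).symm }
  by_cases e : ∀ g ∈ K, g = 1 ∨ ∀ s, ¬ I s x → g • s ≠ s
  · exact ⟨K, fun g => ⟨fun a => ⟨a, e g a⟩, fun a => a.1⟩, g, hx, h1⟩
  push Not at e
  obtain ⟨g, hg, h1, p, hp, h2⟩ := e
  have ho : ∀ q, ¬ I q x → Nat.card (K ⊓ stabilizer G q : Subgroup G) =
      Nat.card (K ⊓ stabilizer G p : Subgroup G) := by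
    have : ∀ q p, ¬ I q x → ¬ I p x → Nat.card (K ⊓ stabilizer G q : Subgroup G) ≤
        Nat.card (K ⊓ stabilizer G p : Subgroup G) := fun q p hq hp => by
      obtain ⟨a, h3, rfl⟩ := tr q p hq hp
      rw [← card_map_of_injective (f := (MulAut.conj a).toMonoidHom) (MulAut.conj a).injective]
      refine card_le_of_le ?_
      rintro _ ⟨b, hb, rfl⟩
      refine ⟨fun s hs => ?_, ?_⟩
      · change (a * b * a⁻¹) • s = s
        rw [mul_smul, mul_smul, hb.1 _ ((h.inv_l (inv_smul_eq_iff.2 h3.symm)).2 hs), smul_inv_smul]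
      · change (a * b * a⁻¹) • a • q = a • q
        rw [mul_smul, mul_smul, inv_smul_smul, hb.2]
    exact fun q hq => le_antisymm (this q p hq hp) (this p q hp hq)
  have h3 : 1 < Nat.card (K ⊓ stabilizer G p : Subgroup G) :=
    (one_lt_card_iff_ne_bot _).2 fun e => h1 (Subgroup.mem_bot.1 (e ▸ ⟨hg, h2⟩))
  obtain ⟨o, h4⟩ : ∃ o, Nat.card (K ⊓ stabilizer G p : Subgroup G) = o + 1 :=
    ⟨_, (Nat.sub_add_cancel h3.le).symm⟩
  have hsub : ∀ q, ¬ I q x → orbit K q ⊆ {q | ¬ I q x} := by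
    rintro q hq _ ⟨a, rfl⟩
    exact fun e => hq ((h.inv_l (h.fix_axis a.2)).1 e)
  have h5 := (pencil_count (Set.toFinite {q | ¬ I q x}) (Set.toFinite (K : Set G))
    (fun q => (K ⊓ stabilizer G q : Subgroup G)) (w := 1) (a := o) (one_mem _)
    (fun _ _ _ a => a.1) (fun _ _ => one_mem _) (fun q hq => (ho q hq).trans h4)
    fun q hq q' hq' hne a h6 h7 => by_contra fun e =>
      hne (h.off_axis h6.1 e hq hq' h6.2 h7.2)).1
  obtain ⟨R, h6, h7⟩ := H12.exists_frobenius_kernel K {q | ¬ I q x} hp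
    (fun m hm => hsub p hp ⟨⟨m, hm⟩, rfl⟩) (fun q hq => by
      by_contra hcon
      have a1 : Disjoint (orbit K p) (orbit K q) := (orbit.eq_or_disjoint _ _).resolve_left fun e =>
        let ⟨m, hm⟩ := e ▸ mem_orbit_self (M := K) q
        hcon ⟨m, m.2, hm⟩
      have a2 := Set.ncard_le_ncard (Set.union_subset (hsub p hp) (hsub q hq)) (Set.toFinite _)
      rw [Set.ncard_union_eq a1] at a2
      have a3 := card_orbit_mul_card_inf K p
      have a4 := card_orbit_mul_card_inf K q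
      rw [ho q hq] at a4
      rw [h4, Nat.card_coe_set_eq] at a3 a4
      have a5 := Nat.eq_of_mul_eq_mul_right (Nat.succ_pos o) (a4.trans a3.symm)
      change _ ≤ Nat.card K at h5
      rw [a5] at a2
      have a6 := Nat.mul_le_mul_right o a2
      have a7 : (orbit K p).ncard * 1 ≤ (orbit K p).ncard * o := Nat.mul_le_mul_left _ (by omega)
      nlinarith)
    fun m hm h8 q hq q' hq' => h.off_axis hm h8 hq hq'
  refine ⟨R, h6, ?_⟩
  by_contra hcon
  push Not at hcon
  obtain ⟨a, h8, rfl⟩ := h7 c hc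
  obtain ⟨b, h9, rfl⟩ := h7 d hd
  exact hcd (by rw [hcon a h8, hcon b h9])

theorem psl (h : SD G I k l)
    (two : ∀ {x y x' y' : X}, x ≠ y → x' ≠ y' → ∃ g : G, g • x = x' ∧ g • y = y')
    {c d : Ω} (hcd : c ≠ d) (hc : ¬ I c x) (hd : ¬ I d x)
    (tr : ∀ s t, ¬ I s x → ¬ I t x → ∃ g : G, g • x = x ∧ g • s = t)
    (hx : ∀ s, I s x → g • s = s) (h1 : g ≠ 1) :
    ∃ (L : Subgroup G) (F : Type) (_ : Field F) (_ : Fintype F) (n : ℕ),
      3 ≤ n ∧ L.Normal ∧ centralizer (L : Set G) = ⊥ ∧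
      Nonempty (L ≃* Matrix.ProjectiveSpecialLinearGroup (Fin n) F) ∧
      Nat.card X * (Fintype.card F - 1) = Fintype.card F ^ n - 1 := by
  obtain ⟨R, hR, r, hr, hr1⟩ := h.exists_elations hcd hc hd tr hx h1
  let P : G → X → Prop := fun g x =>
    (∀ s, I s x → g • s = s) ∧ (g = 1 ∨ ∀ s, ¬ I s x → g • s ≠ s)
  have hP : ∀ (a : G) {g x}, P g x → P (a * g * a⁻¹) (a • x) := fun a g x hg => by
    refine ⟨fun s hs => ?_, hg.2.imp (fun e => by simp [e]) fun e s hs e' => ?_⟩
    · rw [mul_smul, mul_smul, hg.1 _ (by rwa [← h.inv a, smul_inv_smul]), smul_inv_smul]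
    · exact e (a⁻¹ • s) (by rwa [← h.inv a, smul_inv_smul])
        (by rwa [mul_smul, mul_smul, ← eq_inv_smul_iff] at e')
  have h2 := h.lt
  obtain ⟨y, hy, hyx⟩ := exists_mem_ne (show 1 < #{y : X | r • y = y} by
    rw [h.card_fix ((hR r).1 hr).1 (((hR r).1 hr).2.resolve_left hr1)]; omega) x
  have hN : ∀ z, ∃ N : Subgroup G, ∀ g, g ∈ N ↔ P g z := fun z => by
    obtain ⟨a, rfl⟩ : ∃ a : G, a • x = z := by
      by_cases e : z = x
      · exact ⟨1, by rw [one_smul, e]⟩
      · exact (two hyx.symm e).imp fun g hg => hg.1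
    refine ⟨R.map (MulAut.conj a).toMonoidHom, fun g => ⟨?_, fun hg => ⟨a⁻¹ * g * a⁻¹⁻¹,
      (hR _).2 (by simpa using hP a⁻¹ hg), by simp [mul_assoc]⟩⟩⟩
    rintro ⟨b, hb, rfl⟩
    exact hP a ((hR b).1 hb)
  choose N hN using hN
  have hT : TIF N := ⟨fun a _ _ hn => (hN _ _).2 (hP a ((hN _ _).1 hn)),
    fun hn => h.fix_axis ((hN _ _).1 hn).1, two, fun g hg => h.faith g (by
      have := h.fixeq g
      have h3 := h.fixeq 1
      simp only [hg, one_smul] at this h3
      exact fun s => imp_of_card (this.symm.trans h3) rfl (fun _ _ => trivial) trivial),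
    fun hxy a b => h.ti hxy ((hN _ _).1 a).1 ((hN _ _).1 b).1,
    x, y, r, hyx.symm, (hN _ _).2 ((hR r).1 hr), hr1, by simpa using hy⟩
  refine ONF.psl ⟨hT, fun {x y n} hxy hn => ?_⟩
  have h3 := hT.smul_ne hxy hn
  have h4 : ∀ s, I s x → (I s (n • y) ↔ I s y) := fun s hs => h.inv_p (((hN _ _).1 hn).1 s hs)
  refine hT.mem_LL_of_orb hxy hn (fun a ha => ?_) fun a ha => ?_
  · obtain ⟨h5, rfl | h6⟩ := (hN _ _).1 ha.1
    · exact one_smul _ _
    · exact h.fix_line h5 h6 ha.2 hxy.symm h3.symm h4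
  · obtain ⟨h5, rfl | h6⟩ := (hN _ _).1 ha.1
    · exact one_smul _ _
    by_cases e : n • y = y
    · rw [e, hT.fix ha.1]
    refine h.fix_line h5 h6 ha.2 hxy e fun s hs => ⟨fun a => ?_, fun a => (h4 s a).2 hs⟩
    exact (imp_of_card (h.blk2 hxy) (h.blk2 e) (fun s a => ⟨(h4 s a.1).2 a.2, a.2⟩) ⟨a, hs⟩).1

end SD

theorem eq_div_of_mul {v q n : ℕ} (hq : 1 < q) (h : v * (q - 1) = q ^ n - 1) :
    v = (q ^ n - 1) / (q - 1) := by
  rw [← h, Nat.mul_div_cancel _ (by omega)]

end Cfsg.Agent.H26
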