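import Cfsg.Agent.H26.WittPerm
import Mathlib.GroupTheory.IndexNormal
import Mathlib.GroupTheory.SpecificGroups.Alternating.Simple
import Mathlib.GroupTheory.SpecificGroups.Cyclic

set_option autoImplicit false

namespace Cfsg.Agent.H26

open MulAction Subgroup Cfsg.Agent.H69

theorem miller_sym {r k p : ℕ} (hp : p.Prime) (hr : 3 ≤ r) (hkr : k < r) (h2 : r ≤ 4 → p ≠ 2)
    (A B : Subgroup (Equiv.Perm (Fin r))) [A.Normal] (hA : A.index ≤ k.factorial)
    (hB : ∀ b ∈ B, b ^ p = 1) (hAB : ⁅A, A⁆ ≤ B)
    (hc : r ≤ 4 → ∀ s : Equiv.Perm (Fin r), ∀ a ∈ A, s * a * s⁻¹ * a⁻¹ ∈ B) : r = 3 ∧ p = 3 := by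
  have hA1 : A ≠ ⊥ := by
    rintro rfl
    rw [index_bot, Nat.card_perm, Nat.card_eq_fintype_card, Fintype.card_fin] at hA
    have := (Nat.factorial_lt (n := k + 1 - 1 + 0 + 0) (m := r) (by
      rcases Nat.eq_zero_or_pos k with rfl | hk
      · have := Nat.factorial_le hr
        simp [Nat.factorial] at hA this
        omega
      · omega)).2 (by omega)
    simp at this
    omega
  have hord : ∀ q : ℕ, q.Prime → ∀ b ∈ B, b ≠ 1 → b ^ q = 1 → p = q := by
    intro q hq b hb hb1 hbq
    have := Fact.mk hp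
    have := Fact.mk hq
    rw [← orderOf_eq_prime (hB b hb) hb1, orderOf_eq_prime hbq hb1]
  rcases Nat.lt_or_ge 4 r with h5 | h4
  · exfalso
    have h5' : 5 ≤ Nat.card (Fin r) := by rw [Nat.card_eq_fintype_card, Fintype.card_fin]; omega
    have h1 := Equiv.Perm.alternatingGroup_le_of_normal h5' ((nontrivial_iff_ne_bot A).2 hA1)
    have h3 : alternatingGroup (Fin r) ≤ B := by
      rw [← commutator_alternatingGroup_eq_self h5']
      exact (commutator_mono h1 h1).trans hAB
    have : Nontrivial (Fin r) := Fin.nontrivial_iff_two_le.2 (by omega)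
    have hc2 := two_mul_nat_card_alternatingGroup (α := Fin r)
    rw [Nat.card_perm, Nat.card_eq_fintype_card (α := Fin r), Fintype.card_fin] at hc2
    have h24 : 24 ∣ r.factorial := Nat.factorial_dvd_factorial (m := 4) h5.le
    have key : ∀ q : ℕ, q.Prime → q ∣ 12 → p = q := by
      intro q hq hq12
      have := Fact.mk hq
      obtain ⟨b, hb⟩ := exists_prime_orderOf_dvd_card' (G := alternatingGroup (Fin r)) q
        (hq12.trans (by omega))
      refine hord q hq b (h3 b.2) ?_ ?_
      · intro h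
        rw [show b = 1 from Subtype.ext h, orderOf_one] at hb
        exact hq.one_lt.ne hb
      · rw [← hb, ← coe_pow, pow_orderOf_eq_one, coe_one]
    have := (key 2 Nat.prime_two (by norm_num)).symm.trans (key 3 Nat.prime_three (by norm_num))
    omega
  · obtain ⟨⟨a, ha⟩, ha1⟩ := ne_bot_iff_exists_ne_one.1 hA1
    have ha1' : a ≠ 1 := fun h => ha1 (Subtype.ext h)
    obtain rfl | rfl : r = 3 ∨ r = 4 := by omega
    · have : ∀ a : Equiv.Perm (Fin 3), a ≠ 1 → ∃ s : Equiv.Perm (Fin 3),
          s * a * s⁻¹ * a⁻¹ ≠ 1 ∧ (s * a * s⁻¹ * a⁻¹) ^ 3 = 1 := by decide +kernel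
      obtain ⟨s, hs1, hs⟩ := this a ha1'
      exact ⟨rfl, hord 3 Nat.prime_three _ (hc h4 s a ha) hs1 hs⟩
    · have : ∀ a : Equiv.Perm (Fin 4), a ≠ 1 → ∃ s : Equiv.Perm (Fin 4),
          s * a * s⁻¹ * a⁻¹ ≠ 1 ∧ (s * a * s⁻¹ * a⁻¹) ^ 2 = 1 := by decide +kernel
      obtain ⟨s, hs1, hs⟩ := this a ha1'
      exact absurd (hord 2 Nat.prime_two _ (hc h4 s a ha) hs1 hs) (h2 h4)

variable {G α : Type*} [Group G] [MulAction G α]

/-- A `p`-group acts on an orbit of length `p` through a character to `ZMod p`. -/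
theorem exists_char_of_orbit [Finite G] {p : ℕ} [hp : Fact p.Prime] (hG : IsPGroup p G) {o : α}
    (ho : Nat.card (orbit G o) = p) :
    ∃ F : G →* Multiplicative (ZMod p), Function.Surjective F ∧ ∀ t, F t = 1 ↔ t • o = o := by
  have hi : (stabilizer G o).index = p := by rw [index_stabilizer, ← ho]; rfl
  obtain ⟨m, hm⟩ := hG.exists_card_eq
  have hm0 : m ≠ 0 := by
    rintro rfl
    have := (stabilizer G o).index_dvd_card
    rw [hi, hm, pow_zero] at this
    exact hp.out.one_lt.ne' (Nat.dvd_one.1 this)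
  have : (stabilizer G o).Normal :=
    normal_of_index_eq_minFac_card (by rw [hi, hm, hp.out.pow_minFac hm0])
  let e : (G ⧸ stabilizer G o) ≃* Multiplicative (ZMod p) := mulEquivOfPrimeCardEq hi (by simp)
  refine ⟨e.toMonoidHom.comp (QuotientGroup.mk' _),
    e.surjective.comp (QuotientGroup.mk'_surjective _), fun t => ?_⟩
  simp [mem_stabilizer_iff]

theorem exists_pow_of_char {T : Type*} [Group T] {p : ℕ} [NeZero p]
    {F : T →* Multiplicative (ZMod p)} (hF : Function.Surjective F) (c : T →* T)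
    (hc : ∀ t, F t = 1 → F (c t) = 1) : ∃ a : ℕ, ∀ t, F (c t) = F t ^ a := by
  obtain ⟨t0, ht0⟩ := hF (Multiplicative.ofAdd 1)
  have key : ∀ z : Multiplicative (ZMod p), z = F t0 ^ (Multiplicative.toAdd z).val := by
    intro z
    rw [ht0, ← ofAdd_nsmul, nsmul_eq_mul, mul_one, ZMod.natCast_zmod_val, ofAdd_toAdd]
  refine ⟨(Multiplicative.toAdd (F (c t0))).val, fun t => ?_⟩
  set j := (Multiplicative.toAdd (F t)).val
  have h1 := hc (t * (t0 ^ j)⁻¹) (by rw [map_mul, map_inv, map_pow, ← key, mul_inv_cancel])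
  rw [map_mul, map_mul, map_inv, map_inv, mul_inv_eq_one, map_pow, map_pow] at h1
  rw [h1, key (F t), ← pow_mul, mul_comm, pow_mul, ← key]

/-- The core of Miller's theorem on the degree of transitivity. -/
theorem miller_core [Finite G] [Fintype α] {k p r : ℕ} (hp : p.Prime)
    (hn : Fintype.card α = k * p + r) (hk : 1 ≤ k) (hpk : k < p) (hrk : k < r) (hr : 3 ≤ r)
    (hG : IsMultiplyPretransitive G α (r + 1))
    (hL : ∀ (g : G) (s : Finset α), s.card ≤ r → (∀ y ∉ s, g • y = y) → g = 1)
    (hJ : ∀ (g : G) (s : Finset α), s.card ≤ p → g ^ p = 1 → (∀ y ∉ s, g • y = y) → g = 1) :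
    k = 2 ∧ r = 3 ∧ p = 3 := by
  classical
  have := Fact.mk hp
  have hkp : 2 ≤ k * p := le_trans hp.two_le (Nat.le_mul_of_pos_left _ hk)
  obtain ⟨x⟩ : Nonempty (Fin r ↪ α) :=
    Function.Embedding.nonempty_of_card_le (by rw [Fintype.card_fin]; omega)
  set s : Finset α := Finset.univ.map x with hs
  have hsc : s.card = r := by simp [hs]
  have hscc : sᶜ.card = k * p := by rw [Finset.card_compl, hsc]; omega
  have hst : ∀ g : G, g ∈ stabilizer G x ↔ ∀ y ∈ s, g • y = y := by
    intro g
    rw [mem_stabilizer_iff]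
    constructor
    · intro h y hy
      obtain ⟨i, -, rfl⟩ := Finset.mem_map.1 hy
      exact congrArg (fun z : Fin r ↪ α => z i) h
    · intro h
      exact Function.Embedding.ext fun i => h _ (by simp [hs])
  have hout : ∀ g ∈ stabilizer G x, ∀ o ∉ s, g • o ∉ s := by
    intro g hg o ho h
    have := MulAction.injective g ((hst g).1 hg _ h)
    exact ho (this ▸ h)
  obtain ⟨T, hT⟩ := exists_sylOf p (stabilizer G x)
  -- orbits of `T` outside `s`
  have horb : ∀ o ∉ s, Nat.card (orbit T o) = p := by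
    intro o ho
    obtain ⟨m, hm⟩ := hT.isPGroup.card_orbit o
    have hle : Nat.card (orbit T o) ≤ k * p := by
      rw [← hscc, ← Set.ncard_coe_finset]
      apply Set.ncard_le_ncard _ (Finset.finite_toSet _)
      rintro _ ⟨t, rfl⟩
      exact Finset.mem_coe.2 (Finset.mem_compl.2 (hout t (hT.le t.2) o ho))
    have hm2 : m < 2 := by
      rw [hm] at hle
      have : k * p < p ^ 2 := by rw [sq]; exact Nat.mul_lt_mul_of_pos_right hpk hp.pos
      exact (Nat.pow_lt_pow_iff_right hp.one_lt).1 (hle.trans_lt this)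
    have hm0 : m ≠ 0 := by
      rintro rfl
      apply hT.not_dvd_relIndex
      have h1 : T ≤ stabilizer G o := by
        intro t ht
        have : Subsingleton (orbit T o) := (Nat.card_eq_one_iff_unique.1 hm).1
        exact congrArg Subtype.val (Subsingleton.elim (⟨_, mem_orbit o ⟨t, ht⟩⟩ : orbit T o)
          ⟨o, mem_orbit_self o⟩)
      refine dvd_trans ?_ (relIndex_dvd_of_le_left _ h1)
      have h2 : (stabilizer G o).relIndex (stabilizer G x) = k * p := by
        have e : (stabilizer G o).subgroupOf (stabilizer G x) = stabilizer (stabilizer G x) o := rfl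
        rw [relIndex, e, index_stabilizer, ← hscc, ← Set.ncard_coe_finset]
        congr 1
        ext y
        rw [Finset.mem_coe, Finset.mem_compl]
        constructor
        · rintro ⟨t, rfl⟩
          exact hout t t.2 o ho
        · intro hy
          obtain ⟨g, hg, rfl⟩ := fix_trans_of_mt_succ hG s hsc ho hy
          exact ⟨⟨g, (hst g).2 hg⟩, rfl⟩
      rw [h2]
      exact dvd_mul_left _ _
    rw [hm, show m = 1 by omega, pow_one]
  have hfix : ∀ y, (∀ t ∈ T, t • y = y) ↔ y ∈ s := by
    intro y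
    refine ⟨fun h => ?_, fun h t ht => (hst t).1 (hT.le ht) y h⟩
    by_contra hy
    have h1 := horb y hy
    have : orbit T y = {y} := by
      ext z
      constructor
      · rintro ⟨t, rfl⟩
        exact h t t.2
      · rintro rfl
        exact mem_orbit_self _
    rw [this, Nat.card_unique] at h1
    exact hp.one_lt.ne h1
  choose F hFs hF using fun o (ho : o ∉ s) => exists_char_of_orbit hT.isPGroup (horb o ho)
  have hsep : ∀ t u : T, (∀ o ho, F o ho t = F o ho u) → t = u := by
    intro t u h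
    rw [← mul_inv_eq_one]
    refine Subtype.ext (hL _ s hsc.le fun y hy => (hF y hy _).1 ?_)
    rw [map_mul, map_inv, h, mul_inv_cancel]
  have hcomm : ∀ t u : T, t * u = u * t := fun t u => hsep _ _ fun o ho => by
    rw [map_mul, map_mul, mul_comm]
  have hzp : ∀ z : Multiplicative (ZMod p), z ^ p = 1 := fun z => by
    have := pow_card_eq_one' (x := z)
    simpa using this
  have hexp : ∀ t : T, t ^ p = 1 := fun t => hsep _ _ fun o ho => by rw [map_pow, map_one, hzp]
  have hFF : ∀ o (ho : o ∉ s) o' (ho' : o' ∉ s), o' ∈ orbit T o → ∀ t, F o ho t = 1 →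
      F o' ho' t = 1 := by
    rintro o ho _ ho' ⟨u, rfl⟩ t ht
    rw [hF] at ht ⊢
    change t • u • o = u • o
    rw [← mul_smul, hcomm, mul_smul, ht]
  have hJ' : ∀ o ∉ s, ∀ t : T, (∀ o' ho', o' ∉ orbit T o → F o' ho' t = 1) → t = 1 := by
    intro o ho t h
    refine Subtype.ext (hJ t (Set.toFinite (orbit T o)).toFinset ?_ ?_ fun y hy => ?_)
    · rw [← Set.ncard_eq_toFinset_card]
      exact (horb o ho).le
    · exact congrArg Subtype.val (hexp t)
    · by_cases hys : y ∈ s
      · exact (hfix y).2 hys t t.2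
      · exact (hF y hys t).1 (h y hys (by simpa using hy))
  -- the set of orbits
  let Orb : Finset (Set α) := sᶜ.image fun o => orbit T o
  have hOrb : Orb.card = k := by
    have h1 := Finset.card_eq_sum_card_image (fun o => orbit T o) sᶜ
    rw [hscc, Finset.sum_congr rfl (g := fun _ => p), Finset.sum_const, smul_eq_mul] at h1
    · exact (Nat.eq_of_mul_eq_mul_right hp.pos h1).symm
    · intro b hb
      obtain ⟨o, ho, rfl⟩ := Finset.mem_image.1 hb
      rw [← horb o (Finset.mem_compl.1 ho), ← Set.ncard_coe_finset]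
      congr 1
      ext y
      simp only [Finset.coe_filter, Set.mem_ofPred_eq, orbit_eq_iff, Finset.mem_compl]
      refine ⟨fun h => h.2, fun h => ⟨?_, h⟩⟩
      obtain ⟨t, rfl⟩ := h
      exact hout t (hT.le t.2) o (Finset.mem_compl.1 ho)
  obtain ⟨o0, ho0⟩ : ∃ o, o ∉ s := by
    obtain ⟨o, ho⟩ := Finset.card_pos.1 (show 0 < sᶜ.card by omega)
    exact ⟨o, Finset.mem_compl.1 ho⟩
  have hk2 : 2 ≤ k := by
    by_contra hk2
    obtain ⟨t, ht⟩ := hFs o0 ho0 (Multiplicative.ofAdd 1)
    have : t = 1 := hJ' o0 ho0 t fun o' ho' h => by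
      refine absurd (orbit_eq_iff.1 ?_) h
      exact Finset.card_le_one.1 (show Orb.card ≤ 1 by omega) _
        (Finset.mem_image_of_mem _ (Finset.mem_compl.2 ho')) _
        (Finset.mem_image_of_mem _ (Finset.mem_compl.2 ho0))
    rw [this, map_one] at ht
    exact one_ne_zero (Multiplicative.ofAdd.injective ht.symm)
  -- the normaliser
  set N := normalizer (T : Set G) with hN
  let c : N →* MulAut T := T.normalizerMonoidHom
  have hc : ∀ (n : N) (t : T), (c n t : G) = n * t * n⁻¹ := fun n t => rfl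
  have hNs : ∀ n : N, ∀ y, (n : G) • y ∈ s ↔ y ∈ s := by
    have : ∀ n : N, ∀ y ∈ s, (n : G) • y ∈ s := by
      intro n y hy
      rw [← hfix] at hy ⊢
      intro t ht
      have := hy _ (c n⁻¹ ⟨t, ht⟩).2
      rw [hc, inv_inv, mul_smul, mul_smul] at this
      exact inv_smul_eq_iff.1 this
    intro n y
    refine ⟨fun h => ?_, this n y⟩
    have := this n⁻¹ _ h
    rwa [coe_inv, inv_smul_smul] at this
  have hNo : ∀ (n : N) (o : α), (fun y => (n : G) • y) '' orbit T o = orbit T ((n : G) • o) := by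
    intro n o
    ext y
    constructor
    · rintro ⟨_, ⟨t, rfl⟩, rfl⟩
      refine ⟨c n t, ?_⟩
      change (c n t : G) • _ = (n : G) • (t : G) • o
      rw [hc, mul_smul, mul_smul, coe_inv, inv_smul_smul]
    · rintro ⟨t, rfl⟩
      refine ⟨_, ⟨c n⁻¹ t, rfl⟩, ?_⟩
      change (n : G) • (c n⁻¹ t : G) • o = (t : G) • _
      rw [hc, inv_inv, mul_smul, mul_smul, coe_inv, smul_inv_smul]
  let OA : MulAction N Orb :=
    { smul := fun n b => ⟨(fun y => (n : G) • y) '' b.1, by
        obtain ⟨o, ho, hb⟩ := Finset.mem_image.1 b.2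
        rw [← hb, hNo]
        exact Finset.mem_image_of_mem _ (Finset.mem_compl.2 fun h =>
          Finset.mem_compl.1 ho ((hNs n o).1 h))⟩
      one_smul := fun b => Subtype.ext (by
        change (fun y => ((1 : N) : G) • y) '' b.1 = b.1
        simp)
      mul_smul := fun n m b => Subtype.ext (by
        change (fun y => ((n * m : N) : G) • y) '' b.1 =
          (fun y => (n : G) • y) '' ((fun y => (m : G) • y) '' b.1)
        simp [Set.image_image, mul_smul]) }
  let K : Subgroup N := (@toPermHom N Orb _ OA).ker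
  have hKi : K.index ≤ k.factorial := by
    rw [index_ker]
    refine (card_le_card_group _).trans_eq ?_
    rw [Nat.card_perm, Nat.card_eq_fintype_card, Fintype.card_coe, hOrb]
  have hK : ∀ n ∈ K, ∀ o ∉ s, (n : G) • o ∈ orbit T o := by
    intro n hn o ho
    have h1 := congrArg (fun e : Equiv.Perm Orb =>
      (e ⟨_, Finset.mem_image_of_mem _ (Finset.mem_compl.2 ho)⟩).1) (MonoidHom.mem_ker.1 hn)
    change (fun y => (n : G) • y) '' orbit T o = orbit T o at h1
    rw [hNo] at h1
    exact orbit_eq_iff.1 h1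
  have hχ : ∀ n ∈ K, ∀ o ho, ∃ a : ℕ, ∀ t, F o ho (c n t) = F o ho t ^ a := by
    intro n hn o ho
    refine exists_pow_of_char (hFs o ho) (c n).toMonoidHom fun t ht => ?_
    have h1 := hK n⁻¹ (K.inv_mem hn) o ho
    have h2 : ((n⁻¹ : N) : G) • o ∉ s := fun h => ho ((hNs _ _).1 h)
    have h3 := (hF _ h2 t).1 (hFF o ho _ h2 h1 t ht)
    rw [hF]
    change (c n t : G) • o = o
    rw [hc, mul_smul, mul_smul]
    change (t : G) • ((n⁻¹ : N) : G) • o = _ at h3
    rw [h3, coe_inv, smul_inv_smul]
  -- the action on `s`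
  let FA : SubMulAction N α := ⟨s, fun n y hy => (hNs n y).2 hy⟩
  let e : FA ≃ Fin r := Finset.equivFinOfCardEq hsc
  let φ : N →* Equiv.Perm (Fin r) := e.permCongrHom.toMonoidHom.comp (toPermHom N FA)
  have hφ : Function.Surjective φ := by
    refine e.permCongrHom.surjective.comp fun σ => ?_
    let y : Fin r ↪ α := ⟨fun i => σ ⟨x i, show x i ∈ s by simp [hs]⟩, fun i j h =>
      x.injective (congrArg Subtype.val (σ.injective (Subtype.ext h)))⟩
    have h4 : IsMultiplyPretransitive G α r :=
      isMultiplyPretransitive_of_le (n := r + 1) (by omega) (by rw [Nat.card_eq_fintype_card]; omega)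
    obtain ⟨g, hg, hgy⟩ := witt_normalizer (a := x) (b := y) hT ⟨1, one_smul _ _⟩
      (h4.exists_smul_eq x y) hT.le fun t ht => Function.Embedding.ext fun i =>
        (hfix _).2 (σ _).2 t ht
    refine ⟨⟨g, hg⟩, Equiv.ext fun z => Subtype.ext ?_⟩
    obtain ⟨i, -, hi⟩ := Finset.mem_map.1 (show z.1 ∈ s from z.2)
    have : z = ⟨x i, show x i ∈ s by simp [hs]⟩ := Subtype.ext hi.symm
    rw [this]
    exact congrArg (fun w : Fin r ↪ α => w i) hgy
  have hC : ∀ n ∈ K ⊓ c.ker, n ^ p = 1 := by
    rintro n ⟨hn1, hn2⟩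
    refine Subtype.ext (hL _ s hsc.le fun o ho => ?_)
    obtain ⟨u, hu⟩ := hK n hn1 o ho
    have hnu : Commute (n : G) u := by
      have := hc n u
      rw [MonoidHom.mem_ker.1 hn2, coe_inv, eq_mul_inv_iff_mul_eq] at this
      exact this.symm
    have : ∀ j : ℕ, (n : G) ^ j • o = (u : G) ^ j • o := by
      intro j
      induction j with
      | zero => rw [pow_zero, pow_zero]
      | succ j ih =>
        rw [pow_succ', mul_smul, ih, ← mul_smul, (hnu.pow_right j).eq, mul_smul, pow_succ, mul_smul]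
        exact congrArg _ hu.symm
    rw [coe_pow, this, ← coe_pow, hexp, coe_one, one_smul]
  have := (inferInstance : K.Normal).map φ hφ
  obtain ⟨rfl, rfl⟩ := miller_sym hp hr hrk (fun _ => by omega) (K.map φ) ((K ⊓ c.ker).map φ)
    ((Nat.le_of_dvd (Nat.pos_of_ne_zero index_ne_zero_of_finite) (index_map_dvd _ hφ)).trans hKi)
    (by rintro _ ⟨n, hn, rfl⟩; rw [← map_pow, hC n hn, map_one])
    (by
      rw [← map_commutator]
      refine map_mono (le_inf (commutator_le_left _ _) (commutator_le.2 fun g hg h hh => ?_))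
      rw [MonoidHom.mem_ker, map_commutatorElement, commutatorElement_eq_one_iff_mul_comm]
      refine MulEquiv.ext fun t => hsep _ _ fun o ho => ?_
      obtain ⟨a, ha⟩ := hχ g hg o ho
      obtain ⟨b, hb⟩ := hχ h hh o ho
      rw [MulAut.mul_apply, MulAut.mul_apply, ha, hb, hb, ha, ← pow_mul, ← pow_mul, mul_comm])
    (by
      rintro h4 σ _ ⟨n, hn, rfl⟩
      obtain ⟨m, rfl⟩ := hφ σ
      have key : ∃ a : ℕ, ∀ t, c n t = t ^ a := by
        choose a ha using hχ n hn
        have S : ∀ o1 h1 o2 h2 o3 h3,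
            (∀ o ∉ s, o ∉ orbit T o1 → o ∈ orbit T o2 ∨ o ∈ orbit T o3) →
            (a o1 h1 : ZMod p) = a o2 h2 ∨ (a o1 h1 : ZMod p) = a o3 h3 := by
          intro o1 h1 o2 h2 o3 h3 hcov
          obtain ⟨t, ht⟩ := hFs o1 h1 (Multiplicative.ofAdd 1)
          set y := c n t * (t ^ a o2 h2)⁻¹ with hy
          have hz : c n y * (y ^ a o3 h3)⁻¹ = 1 := hJ' o1 h1 _ fun o ho hoo => by
            rcases hcov o ho hoo with h | h
            · refine hFF o2 h2 o ho h _ ?_
              have : F o2 h2 y = 1 := by rw [hy, map_mul, map_inv, map_pow, ha, mul_inv_cancel]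
              rw [map_mul, map_inv, map_pow, ha, this, one_pow, one_pow, mul_inv_cancel]
            · refine hFF o3 h3 o ho h _ ?_
              rw [map_mul, map_inv, map_pow, ha, mul_inv_cancel]
          have h5 := congrArg (fun z => Multiplicative.toAdd (F o1 h1 z)) hz
          simp only [hy, map_mul, map_inv, map_pow, ha, ht, toAdd_mul, toAdd_inv, toAdd_pow,
            toAdd_ofAdd, map_one, toAdd_one, nsmul_eq_mul, mul_one] at h5
          have h6 : ((a o1 h1 : ZMod p) - a o2 h2) * ((a o1 h1 : ZMod p) - a o3 h3) = 0 := by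
            linear_combination h5
          rcases mul_eq_zero.1 h6 with h | h
          · exact Or.inl (sub_eq_zero.1 h)
          · exact Or.inr (sub_eq_zero.1 h)
        have hall : ∀ o1 h1 o2 h2, (a o1 h1 : ZMod p) = a o2 h2 := by
          intro o1 h1 o2 h2
          by_cases h12 : orbit T o1 = orbit T o2
          · obtain ⟨t, ht⟩ := hFs o1 h1 (Multiplicative.ofAdd 1)
            have h5 := congrArg Multiplicative.toAdd (hFF o2 h2 o1 h1 (orbit_eq_iff.1 h12)
              (c n t * (t ^ a o2 h2)⁻¹) (by rw [map_mul, map_inv, map_pow, ha, mul_inv_cancel]))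
            simp only [map_mul, map_inv, map_pow, ha, ht, toAdd_mul, toAdd_inv, toAdd_pow,
              toAdd_ofAdd, toAdd_one, nsmul_eq_mul, mul_one] at h5
            linear_combination h5
          · have hm : ∀ o ∉ s, orbit T o ∈ Orb := fun o ho =>
              Finset.mem_image_of_mem _ (Finset.mem_compl.2 ho)
            obtain ⟨o3, h3, hcov⟩ : ∃ o3 ∉ s, ∀ o ∉ s,
                o ∉ orbit T o1 → o ∉ orbit T o2 → o ∈ orbit T o3 := by
              by_cases hex : ∃ o3 ∉ s, o3 ∉ orbit T o1 ∧ o3 ∉ orbit T o2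
              · obtain ⟨o3, h3, h31, h32⟩ := hex
                refine ⟨o3, h3, fun o ho ho1 ho2 => orbit_eq_iff.1 ?_⟩
                have hcard : ((Orb.erase (orbit T o1)).erase (orbit T o2)).card ≤ 1 := by
                  rw [Finset.card_erase_of_mem (Finset.mem_erase.2 ⟨Ne.symm h12, hm o2 h2⟩),
                    Finset.card_erase_of_mem (hm o1 h1), hOrb]
                  omega
                refine Finset.card_le_one.1 hcard _ ?_ _ ?_
                · simp only [Finset.mem_erase, ne_eq, orbit_eq_iff]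
                  exact ⟨ho2, ho1, hm o ho⟩
                · simp only [Finset.mem_erase, ne_eq, orbit_eq_iff]
                  exact ⟨h32, h31, hm o3 h3⟩
              · exact ⟨o1, h1, fun o ho ho1 ho2 => absurd ⟨o, ho, ho1, ho2⟩ hex⟩
            have s1 := S o1 h1 o2 h2 o3 h3 fun o ho ho1 => by
              by_cases ho2 : o ∈ orbit T o2
              · exact Or.inl ho2
              · exact Or.inr (hcov o ho ho1 ho2)
            have s2 := S o2 h2 o1 h1 o3 h3 fun o ho ho2 => by
              by_cases ho1 : o ∈ orbit T o1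
              · exact Or.inl ho1
              · exact Or.inr (hcov o ho ho1 ho2)
            rcases s1 with s1 | s1
            · exact s1
            · rcases s2 with s2 | s2
              · exact s2.symm
              · exact s1.trans s2.symm
        refine ⟨a o0 ho0, fun t => hsep _ _ fun o ho => ?_⟩
        rw [ha, map_pow]
        apply Multiplicative.toAdd.injective
        rw [toAdd_pow, toAdd_pow, nsmul_eq_mul, nsmul_eq_mul, hall o ho o0 ho0]
      obtain ⟨a, ha⟩ := key
      refine ⟨m * n * m⁻¹ * n⁻¹, ⟨K.mul_mem ((inferInstance : K.Normal).conj_mem n hn m)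
        (K.inv_mem hn), ?_⟩, by simp only [map_mul, map_inv]⟩
      change _ ∈ c.ker
      rw [MonoidHom.mem_ker, map_mul, map_mul, map_mul, map_inv, map_inv, mul_inv_eq_one,
        mul_inv_eq_iff_eq_mul]
      refine MulEquiv.ext fun t => ?_
      rw [MulAut.mul_apply, MulAut.mul_apply, ha, ha, map_pow])
  exact ⟨by omega, rfl, rfl⟩

end Cfsg.Agent.H26
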