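import Cfsg.Agent.H48.Coprime
import Cfsg.Agent.H49.Lin34b
import Cfsg.Agent.H3.Transfer2

/-! A solvable linear group of odd order whose order is divisible by a primitive prime divisor has
an irreducible abelian normal subgroup. -/

set_option autoImplicit false

namespace Cfsg.Agent.H26

open Subgroup Cfsg.Agent.H49 Cfsg.Agent.H48

variable {G : Type*} [Group G] [Finite G]

theorem irred_of_primitive_prime {p f r : ℕ} (hp : p.Prime) (hr : r.Prime) {N R : Subgroup G}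
    (hN : Nat.card N = p ^ f) (hrd : r ∣ p ^ f - 1)
    (hprim : ∀ k : ℕ, 1 ≤ k → k < f → ¬ r ∣ p ^ k - 1) (hR : IsPGroup r R) (hRN : R ≤ 𝒩(N))
    (hne : ¬ R ≤ 𝒞(N)) : N ⊓ 𝒞(R) = ⊥ ∧ ∀ U ≤ N, R ≤ 𝒩(U) → U = ⊥ ∨ U = N := by
  have := Fact.mk hr
  have sub : ∀ U ≤ N, ∃ i ≤ f, Nat.card U = p ^ i := fun U hU =>
    (Nat.dvd_prime_pow hp).1 (hN ▸ card_dvd_of_le hU)
  have key : ∀ U ≤ N, Nat.card U ≡ 1 [MOD r] → U = ⊥ ∨ U = N := by
    intro U hU h1
    obtain ⟨i, hi, e⟩ := sub U hU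
    rcases Nat.eq_zero_or_pos i with rfl | h0
    · exact Or.inl (eq_bot_of_card_eq _ (by simpa using e))
    rcases hi.lt_or_eq with h2 | rfl
    · exact absurd ((Nat.modEq_iff_dvd' (Nat.one_le_pow _ _ hp.pos)).1 (e ▸ h1).symm) (hprim i h0 h2)
    · exact Or.inr (eq_of_le_of_card_ge hU (by rw [e, hN]))
  have h1 : N ⊓ 𝒞(R) = ⊥ := by
    refine (key _ inf_le_left ?_).resolve_right fun e => hne (cent_symm (e ▸ inf_le_right))
    refine (H3.card_modEq_card_inf_centralizer hR hRN).symm.trans ?_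
    rw [hN]
    exact ((Nat.modEq_iff_dvd' (Nat.one_le_pow _ _ hp.pos)).2 hrd).symm
  refine ⟨h1, fun U hU hRU => key U hU ?_⟩
  have := H3.card_modEq_card_inf_centralizer hR hRU
  rwa [show U ⊓ 𝒞(R) = ⊥ from eq_bot_iff.2 (h1 ▸ inf_le_inf_right _ hU), card_bot] at this

theorem exists_abelian_irred {p f r : ℕ} (hp : p.Prime) (hr : r.Prime) {N H : Subgroup G}
    (hV : IsElementaryAbelian p N) (hN : Nat.card N = p ^ f) (hf : f ≠ 0) (hrd : r ∣ p ^ f - 1)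
    (hprim : ∀ k : ℕ, 1 ≤ k → k < f → ¬ r ∣ p ^ k - 1) (hs : Group.IsSolvable H)
    (hodd : Odd (Nat.card H)) (hHN : H ≤ 𝒩(N)) (hfaith : H ⊓ 𝒞(N) = ⊥) (hrH : r ∣ Nat.card H) :
    ∃ A ≤ H, H ≤ 𝒩(A) ∧ A ≤ 𝒞(A) ∧ ∀ U ≤ N, A ≤ 𝒩(U) → U = ⊥ ∨ U = N := by
  have := Fact.mk hr
  have := Fact.mk hp
  have irr : ∀ R ≤ H, IsPGroup r R → R ≠ ⊥ → N ⊓ 𝒞(R) = ⊥ ∧ ∀ U ≤ N, R ≤ 𝒩(U) → U = ⊥ ∨ U = N :=
    fun R h1 h2 h3 => irred_of_primitive_prime hp hr hN hrd hprim h2 (h1.trans hHN)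
      fun e => h3 (eq_bot_iff.2 (hfaith ▸ le_inf h1 e))
  obtain ⟨⟨x, hx⟩, hxo⟩ := exists_prime_orderOf_dvd_card' r hrH
  rw [orderOf_mk] at hxo
  have hRc : Nat.card (zpowers x) = r := by rw [Nat.card_zpowers, hxo]
  have hRH : zpowers x ≤ H := zpowers_le.2 hx
  have hR : IsPGroup r (zpowers x) := IsPGroup.of_card (n := 1) (by rw [hRc, pow_one])
  have hR1 : zpowers x ≠ ⊥ := fun e => hr.one_lt.ne' (by rw [← hRc, e, card_bot])
  obtain ⟨i1, i2⟩ := irr _ hRH hR hR1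
  have hpr : p ≠ r := by
    rintro rfl
    have := Nat.dvd_sub (dvd_pow_self p hf) hrd
    rw [Nat.sub_sub_self (Nat.one_le_pow _ _ hp.pos)] at this
    exact hp.one_lt.ne' (Nat.dvd_one.1 this)
  have hN1 : N ≠ ⊥ := fun e => by
    rw [e, card_bot] at hN
    exact (Nat.one_lt_pow hf hp.one_lt).ne hN
  have hOp : piCoreOf {p} H = ⊥ := by
    have h1 := H3.card_modEq_card_inf_centralizer (pcore_isPGroup hp H) ((pcore_le _ H).trans hHN)
    rcases i2 _ inf_le_left (norm_inf (hRH.trans hHN) (norm_cent (le_norm_pcore {p} hRH))) with e | e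
    · rw [e, card_bot, hN] at h1
      have := (Nat.modEq_zero_iff_dvd.2 (dvd_pow_self p hf)).symm.trans h1
      exact absurd (Nat.modEq_zero_iff_dvd.1 this.symm) (Nat.Prime.not_dvd_one hp)
    · exact eq_bot_iff.2 (hfaith ▸ le_inf (pcore_le _ H) (cent_symm (e ▸ inf_le_right)))
  have hOr : piCoreOf {r} H ≠ ⊥ := by
    intro e
    have nd : ∀ q : ℕ, q.Prime → piCoreOf {q} H = ⊥ → ¬ q ∣ Nat.card (fittingOf H) :=
      fun q hq e hd => pcore_ne_bot_of_nil hq (fit_nil H) hd ((pcore_fit hq H).trans e)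
    have hle : fittingOf H ⊔ zpowers x ≤ H := sup_le (fit_le H) hRH
    have h1 := comm_cent_of_cent_eq_bot hp (H48.solvable_of_le hs (fit_le H))
      (hodd.of_dvd_nat (card_dvd_of_le hle)) (le_norm_fit hRH)
      (by rw [hRc]; exact (hr.coprime_iff_not_dvd.2 (nd r hr e)).symm) (hRc ▸ hr) hV
      (hle.trans hHN) ((isPi_compl_iff hp).1 (isPi_sup (le_norm_fit hRH)
        ((isPi_compl_iff hp).2 (nd p hp hOp)) ((isPi_compl_iff hp).2 (by
          rw [hRc]; exact fun e => hpr ((Nat.prime_dvd_prime_iff_eq hp hr).1 e))))) i1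
    have h2 : ⁅fittingOf H, zpowers x⁆ = ⊥ := eq_bot_iff.2 (hfaith ▸ le_inf
      ((commutator_le_left_of_norm (le_norm_fit hRH)).trans (fit_le H)) h1)
    have h3 := (le_inf hRH (cent_symm (commutator_eq_bot_iff_le_centralizer.1 h2))).trans
      (cent_fit_le hs)
    exact nd r hr e (hRc ▸ card_dvd_of_le h3)
  refine ⟨piCoreOf {r} H ⊓ 𝒞(piCoreOf {r} H), inf_le_left.trans (pcore_le _ H),
    norm_inf (le_norm_pcore _ le_rfl) (norm_cent (le_norm_pcore _ le_rfl)),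
    inf_le_right.trans (centralizer_le inf_le_left), ?_⟩
  exact (irr _ (inf_le_left.trans (pcore_le _ H)) (pcore_isPGroup hr H).to_inf_left
    (center_ne_bot_of_nil (pcore_isPGroup hr H).isNilpotent hOr)).2

end Cfsg.Agent.H26
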